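import Mathlib
import Cfsg.Agent.Lib.Helper6.X32.Defs

/-!
# X32 project (S6002), package [NOTRV]: no transvection permutes the frame
-/

set_option autoImplicit false

namespace Cfsg.Agent.Lib.Helper3.X32

open Matrix
open scoped MatrixGroups
open Cfsg.Agent.Lib.Helper6.X32

universe u

theorem notrv_rank_sub_le {F : Type u} [Field F] (A B : M4 F) :
    (A - B).rank ≤ A.rank + B.rank := by
  unfold Matrix.rank
  have hle : LinearMap.range (A - B).mulVecLin ≤
      LinearMap.range A.mulVecLin ⊔ LinearMap.range B.mulVecLin := by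
    rintro _ ⟨v, rfl⟩
    rw [Matrix.mulVecLin_apply, Matrix.sub_mulVec]
    exact Submodule.sub_mem _ (Submodule.mem_sup_left ⟨v, rfl⟩)
      (Submodule.mem_sup_right ⟨v, rfl⟩)
  exact le_trans (Submodule.finrank_mono hle)
    (Submodule.finrank_add_le_finrank_add_finrank _ _)

theorem notrv_full {F : Type u} [Field F] (A X : M4 F) (h : A * X = 1) : 4 ≤ A.rank := by
  have h1 : (1 : M4 F).rank ≤ A.rank := by
    rw [← h]
    exact Matrix.rank_mul_le_left _ _
  rw [Matrix.rank_one, Fintype.card_sum, Fintype.card_fin] at h1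
  exact h1

theorem notrv_sq_neg {F : Type u} [Field F] (h2 : (2 : F) ≠ 0) (K : M4 F) (hK : K * K = -1) :
    4 ≤ (K - 1).rank := by
  apply notrv_full (K - 1) ((-(2 : F)⁻¹) • (K + 1))
  rw [Matrix.mul_smul]
  have h1 : (K - 1) * (K + 1) = (-2 : F) • (1 : M4 F) := by
    rw [sub_mul, mul_add, mul_add, hK, mul_one, one_mul, one_mul, neg_smul, two_smul]
    abel
  rw [h1, smul_smul]
  have h3 : (-(2 : F)⁻¹) * (-2) = 1 := by field_simp
  rw [h3, one_smul]

/-- [NOTRV] -/
theorem pkgNoTrv : PkgNoTrv.{u} := by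
  intro F _ R h hR hF t σ hP hrank
  classical
  have h2 := hR.two_ne
  have hk2 : ∀ g : GL4 F, ((t * g * t⁻¹ * g⁻¹ : GL4 F) : M4 F) - 1 =
      (((t : M4 F) - 1) * (g : M4 F) - (g : M4 F) * ((t : M4 F) - 1)) *
        ((t⁻¹ * g⁻¹ : GL4 F) : M4 F) := by
    intro g
    have e1 : (t : M4 F) * (g : M4 F) * ((t⁻¹ * g⁻¹ : GL4 F) : M4 F) =
        ((t * g * t⁻¹ * g⁻¹ : GL4 F) : M4 F) := by
      rw [← Units.val_mul, ← Units.val_mul]
      congr 1
      group
    have e2 : (g : M4 F) * (t : M4 F) * ((t⁻¹ * g⁻¹ : GL4 F) : M4 F) = 1 := by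
      rw [← Units.val_mul, ← Units.val_mul]
      have h' : g * t * (t⁻¹ * g⁻¹) = 1 := by group
      rw [h', Units.val_one]
    have e3 : ((t : M4 F) - 1) * (g : M4 F) - (g : M4 F) * ((t : M4 F) - 1) =
        (t : M4 F) * (g : M4 F) - (g : M4 F) * (t : M4 F) := by
      rw [sub_mul, mul_sub, one_mul, mul_one]
      abel
    rw [e3, sub_mul, e1, e2]
  have hrk : ∀ g : GL4 F, (((t * g * t⁻¹ * g⁻¹ : GL4 F) : M4 F) - 1).rank ≤ 2 := by
    intro g
    rw [hk2]
    refine le_trans (Matrix.rank_mul_le_left _ _) ?_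
    have hA : (((t : M4 F) - 1) * (g : M4 F)).rank ≤ 1 :=
      le_trans (Matrix.rank_mul_le_left _ _) hrank
    have hB : ((g : M4 F) * ((t : M4 F) - 1)).rank ≤ 1 :=
      le_trans (Matrix.rank_mul_le_right _ _) hrank
    have hsub := notrv_rank_sub_le (((t : M4 F) - 1) * (g : M4 F))
      ((g : M4 F) * ((t : M4 F) - 1))
    omega
  have hcomm_h : ∀ i, t * h i = h i * t := by
    intro i
    have hhinv : (h i)⁻¹ = h i := inv_eq_of_mul_eq_one_left (hF.sq i)
    by_cases hσ : σ i = i
    · rcases hP i with hp | hp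
      · rw [hσ] at hp
        calc t * h i = t * h i * t⁻¹ * t := by group
          _ = h i * t := by rw [hp]
      · exfalso
        rw [hσ] at hp
        have hk : t * h i * t⁻¹ * (h i)⁻¹ = -1 := by rw [hp, neg_mul, mul_inv_cancel]
        have hr := hrk (h i)
        rw [hk, Units.val_neg, Units.val_one] at hr
        have hfull := notrv_full ((-1 : M4 F) - 1) ((-(2 : F)⁻¹) • (1 : M4 F)) (by
          have e : (-1 : M4 F) - 1 = (-2 : F) • (1 : M4 F) := by
            rw [neg_smul, two_smul]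
            abel
          rw [e, Matrix.smul_mul, Matrix.one_mul, smul_smul]
          have h3 : (-2 : F) * (-(2 : F)⁻¹) = 1 := by field_simp
          rw [h3, one_smul])
        omega
    · exfalso
      have hsq : h (σ i) * h i * (h (σ i) * h i) = -1 := by
        calc h (σ i) * h i * (h (σ i) * h i) = h (σ i) * (h i * h (σ i)) * h i := by group
          _ = h (σ i) * (-(h (σ i) * h i)) * h i := by rw [hF.anti i (σ i) (Ne.symm hσ)]
          _ = -(h (σ i) * h (σ i) * (h i * h i)) := by
              rw [mul_neg, neg_mul]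
              congr 1
              group
          _ = -1 := by rw [hF.sq, hF.sq, one_mul]
      have hkk : (t * h i * t⁻¹ * (h i)⁻¹) * (t * h i * t⁻¹ * (h i)⁻¹) = -1 := by
        rw [hhinv]
        rcases hP i with hp | hp
        · rw [hp]
          exact hsq
        · rw [hp, neg_mul, neg_mul_neg]
          exact hsq
      have hr := hrk (h i)
      have hfull := notrv_sq_neg h2 ((t * h i * t⁻¹ * (h i)⁻¹ : GL4 F) : M4 F) (by
        rw [← Units.val_mul, hkk, Units.val_neg, Units.val_one])
      omega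
  have hall : ∀ g ∈ R, t * g = g * t := by
    intro g hg
    have hle : R ≤ Subgroup.centralizer {t} := by
      rw [← hF.gen, Subgroup.closure_le]
      rintro _ ⟨i, rfl⟩
      rw [SetLike.mem_coe, Subgroup.mem_centralizer_iff]
      intro s hs
      rw [Set.mem_singleton_iff.1 hs]
      exact hcomm_h i
    exact Subgroup.mem_centralizer_iff.1 (hle hg) t (Set.mem_singleton t)
  obtain ⟨c, hc⟩ := hR.commutant (t : M4 F) (fun g hg => by
    rw [← Units.val_mul, ← Units.val_mul, hall g hg])
  have hc1 : c = 1 := by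
    by_contra hne
    have hne' : c - 1 ≠ 0 := sub_ne_zero.2 hne
    have hfull := notrv_full ((t : M4 F) - 1) ((c - 1)⁻¹ • (1 : M4 F)) (by
      rw [hc]
      have e : c • (1 : M4 F) - 1 = (c - 1) • (1 : M4 F) := by rw [sub_smul, one_smul]
      rw [e, Matrix.smul_mul, Matrix.one_mul, smul_smul, mul_inv_cancel₀ hne', one_smul])
    omega
  apply Units.ext
  rw [hc, hc1, one_smul, Units.val_one]

end Cfsg.Agent.Lib.Helper3.X32
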