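import Mathlib
import Cfsg.Agent.Lib.Helper6.X32.Defs

/-!
# X32 project (S6002), package [TRID]: the trace identity

For `y ∈ N(R)` inverting no element of `R` up to sign: `2 · tr y · tr y⁻¹ = |C_R(y)|`.
-/

set_option autoImplicit false

namespace Cfsg.Agent.Lib.Helper3.X32

open Matrix
open scoped MatrixGroups
open Cfsg.Agent.Lib.Helper6.X32

universe u

/-- elements of `R` other than `±1` have trace `0`. -/
theorem trid_trace_zero {F : Type u} [Field F] (R : Subgroup (GL4 F)) (hR : RFacts R)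
    (k : GL4 F) (hk : k ∈ R) (h1 : k ≠ 1) (hm1 : k ≠ -1) :
    Matrix.trace (k : M4 F) = 0 := by
  have hnc : ∃ g ∈ R, k * g ≠ g * k := by
    by_contra hcon
    push Not at hcon
    rcases hR.center k hk hcon with h | h
    · exact h1 h
    · exact hm1 h
  obtain ⟨g, hg, hkg⟩ := hnc
  have hanti : k * g = -(g * k) := by
    rcases hR.comm k hk g hg with h | h
    · exact absurd h hkg
    · exact h
  have hk' : k = -(g * k * g⁻¹) := by
    calc k = k * g * g⁻¹ := by group
      _ = -(g * k) * g⁻¹ := by rw [hanti]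
      _ = -(g * k * g⁻¹) := by rw [neg_mul]
  have htr : Matrix.trace (k : M4 F) = -Matrix.trace (k : M4 F) := by
    conv_lhs => rw [hk']
    rw [Units.val_neg, Matrix.trace_neg, Units.val_mul, Units.val_mul,
      Matrix.trace_units_conj]
  have h2 : (2 : F) * Matrix.trace (k : M4 F) = 0 := by linear_combination htr
  rcases mul_eq_zero.1 h2 with h | h
  · exact absurd h hR.two_ne
  · exact h

/-- [TRID] -/
theorem pkgTrId : PkgTrId.{u} := by
  intro F _ R hR y hy hneg
  classical
  have : Finite R := Nat.finite_of_card_ne_zero (by rw [hR.card]; norm_num)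
  letI : Fintype R := Fintype.ofFinite R
  have h2 := hR.two_ne
  have h4 : (4 : F) ≠ 0 := by
    have h : (4 : F) = 2 * 2 := by norm_num
    rw [h]
    exact mul_ne_zero h2 h2
  have hyR : ∀ g ∈ R, y * g * y⁻¹ ∈ R := fun g hg => (Subgroup.mem_normalizer_iff.1 hy g).1 hg
  obtain ⟨S, hS⟩ : ∃ S : M4 F,
      S = ∑ g : R, (((g : GL4 F) * y * (g : GL4 F)⁻¹ : GL4 F) : M4 F) := ⟨_, rfl⟩
  have hcomm : ∀ k ∈ R, S * ((k : GL4 F) : M4 F) = ((k : GL4 F) : M4 F) * S := by
    intro k hk
    rw [hS, Finset.sum_mul, Finset.mul_sum]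
    apply Fintype.sum_equiv (Equiv.mulLeft (⟨k, hk⟩⁻¹ : R))
    intro g
    rw [← Units.val_mul, ← Units.val_mul]
    congr 1
    simp only [Equiv.coe_mulLeft, Subgroup.coe_mul, Subgroup.coe_inv]
    group
  obtain ⟨c, hc⟩ := hR.commutant S hcomm
  have htr : Matrix.trace S = 32 * Matrix.trace (y : M4 F) := by
    rw [hS, Matrix.trace_sum]
    have h : ∀ g : R, Matrix.trace ((((g : GL4 F) * y * (g : GL4 F)⁻¹ : GL4 F) : M4 F)) =
        Matrix.trace (y : M4 F) := by
      intro g
      rw [Units.val_mul, Units.val_mul]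
      exact Matrix.trace_units_conj _ _
    rw [Finset.sum_congr rfl (fun g _ => h g), Finset.sum_const, Finset.card_univ,
      ← Nat.card_eq_fintype_card, hR.card]
    simp
  have hc8 : c = 8 * Matrix.trace (y : M4 F) := by
    have h1 : Matrix.trace S = c * 4 := by
      rw [hc, Matrix.trace_smul, Matrix.trace_one]
      simp
    rw [htr] at h1
    have h3 : (4 : F) * (c - 8 * Matrix.trace (y : M4 F)) = 0 := by linear_combination -h1
    rcases mul_eq_zero.1 h3 with h | h
    · exact absurd h h4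
    · exact sub_eq_zero.1 h
  have hcard : (cfix R y : F) =
      ∑ g : R, (if y * (g : GL4 F) = (g : GL4 F) * y then (1 : F) else 0) := by
    unfold cfix
    rw [Finset.sum_boole]
    congr 1
    rw [Nat.card_congr (Equiv.subtypeSubtypeEquivSubtypeInter (fun g : GL4 F => g ∈ R)
      (fun g => y * g = g * y)).symm, Nat.card_eq_fintype_card, Fintype.card_subtype]
  have hterm : ∀ g : R,
      Matrix.trace ((((g : GL4 F) * y * (g : GL4 F)⁻¹ * y⁻¹ : GL4 F) : M4 F)) =
        if y * (g : GL4 F) = (g : GL4 F) * y then (4 : F) else 0 := by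
    intro g
    by_cases hcg : y * (g : GL4 F) = (g : GL4 F) * y
    · rw [if_pos hcg]
      have h1 : (g : GL4 F) * y * (g : GL4 F)⁻¹ * y⁻¹ = 1 := by
        rw [← hcg]
        group
      rw [h1, Units.val_one, Matrix.trace_one]
      simp
    · rw [if_neg hcg]
      have hkR : (g : GL4 F) * y * (g : GL4 F)⁻¹ * y⁻¹ ∈ R := by
        have h1 := hyR _ (R.inv_mem g.2)
        have h3 := R.mul_mem g.2 h1
        have h5 : (g : GL4 F) * (y * (g : GL4 F)⁻¹ * y⁻¹) =
            (g : GL4 F) * y * (g : GL4 F)⁻¹ * y⁻¹ := by group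
        rwa [h5] at h3
      apply trid_trace_zero R hR _ hkR
      · intro h1
        apply hcg
        have h3 : y * (g : GL4 F) =
            ((g : GL4 F) * y * (g : GL4 F)⁻¹ * y⁻¹)⁻¹ * ((g : GL4 F) * y) := by group
        rw [h3, h1]
        group
      · intro h1
        apply hneg _ (R.inv_mem g.2)
        have h3 : y * (g : GL4 F)⁻¹ * y⁻¹ =
            (g : GL4 F)⁻¹ * ((g : GL4 F) * y * (g : GL4 F)⁻¹ * y⁻¹) := by group
        rw [h3, h1]
        simp
  have hSy : S * ((y⁻¹ : GL4 F) : M4 F) =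
      ∑ g : R, (((g : GL4 F) * y * (g : GL4 F)⁻¹ * y⁻¹ : GL4 F) : M4 F) := by
    rw [hS, Finset.sum_mul]
    apply Finset.sum_congr rfl
    intro g _
    rw [← Units.val_mul]
  have h1 : Matrix.trace (S * ((y⁻¹ : GL4 F) : M4 F)) =
      c * Matrix.trace ((y⁻¹ : GL4 F) : M4 F) := by
    rw [hc, Matrix.smul_mul, Matrix.one_mul, Matrix.trace_smul, smul_eq_mul]
  have h3 : Matrix.trace (S * ((y⁻¹ : GL4 F) : M4 F)) = 4 * (cfix R y : F) := by
    rw [hSy, Matrix.trace_sum, Finset.sum_congr rfl (fun g _ => hterm g), hcard, Finset.mul_sum]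
    apply Finset.sum_congr rfl
    intro g _
    split_ifs <;> simp
  rw [h1, hc8] at h3
  have h5 : (4 : F) * (2 * Matrix.trace (y : M4 F) * Matrix.trace ((y⁻¹ : GL4 F) : M4 F) -
      (cfix R y : F)) = 0 := by linear_combination h3
  rcases mul_eq_zero.1 h5 with h | h
  · exact absurd h h4
  · exact sub_eq_zero.1 h

end Cfsg.Agent.Lib.Helper3.X32
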